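import Cfsg.Agent.H210.FR.DOne
import Cfsg.Agent.H374.FR.Hei

/-!
# Elements of the long parabolic which move the long root subgroup (S2452, `F₄(q)`, box D1; helper210)

* `dOne` : `g ∈ PK K {k | k ≠ 3}` does not centralise `XT K`, `‖χ x‖ ≤ r χ(1)` for `1 ≠ x ∈ VK K {k | k ≠ 3}`:
  `‖χ g‖ ≤ (r + q⁻²) χ(1)`.
-/

set_option autoImplicit false

namespace Cfsg.Agent.H210.FR.DOne

open Module Cfsg.Lie
open Cfsg.Agent.H520.FC (PK VK XT)
open Cfsg.Agent.H374.FR.Comm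
open Cfsg.Agent.H980.RB (xt)

universe u

variable {K : Type u} [Field K] [Finite K]

theorem xt_eq : xt K = xh K := rfl

theorem not_le : ¬ VK K {k | k ≠ 3} ≤ (xt K).range := by
  intro h
  have h1 := Subgroup.card_le_of_le h
  rw [card_V] at h1
  have h2 : Nat.card (xt K).range ≤ Nat.card K := by
    have h3 : Function.Surjective (fun t : K => (⟨xt K (.ofAdd t), _, rfl⟩ : (xt K).range)) := by
      rintro ⟨_, t, rfl⟩
      exact ⟨Multiplicative.toAdd t, rfl⟩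
    exact Nat.card_le_card_of_surjective _ h3
  have h3 : 1 < Nat.card K := Finite.one_lt_card
  have h4 : Nat.card K ^ 1 < Nat.card K ^ 15 := Nat.pow_lt_pow_right h3 (by norm_num)
  rw [pow_one] at h4
  omega

/-- **(D1), concrete form.** -/
theorem dOne [Finite ↥(chevF4.group K)] (h2 : (2 : K) ≠ 0) {g : ↥(chevF4.group K)} (hg : g ∈ PK K {k | k ≠ 3})
    (hgc : ¬ ∀ z ∈ XT K, g * z = z * g) {W : Type*} [AddCommGroup W] [Module ℂ W] [FiniteDimensional ℂ W]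
    (ρ : Representation ℂ ↥(chevF4.group K) W) {r : ℝ} (hr : 0 ≤ r)
    (hx : ∀ x ∈ VK K {k | k ≠ 3}, x ≠ 1 → ‖ρ.character x‖ ≤ r * finrank ℂ W) :
    ‖ρ.character g‖ ≤ (r + ((Nat.card K : ℝ) ^ 2)⁻¹) * finrank ℂ W := by
  obtain ⟨c, -, hc⟩ := hei_act hg
  refine ratio_move (X := xt K) (c := c) ?_ hc inj (hei h2) (hei_norm hg) not_le ρ hr hx
  rintro rfl
  refine hgc fun z hz => ?_
  rw [← range_xh] at hz
  obtain ⟨t, rfl⟩ := hz
  have h1 := hc (Multiplicative.toAdd t)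
  rw [one_mul] at h1
  exact mul_inv_eq_iff_eq_mul.1 h1

end Cfsg.Agent.H210.FR.DOne
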